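/- Local structure of the Suzuki group at the primes 7, 5 and 3. -/
import Cfsg.Agent.H88.LocG
import Cfsg.Agent.H88.SuzLocD7
import Cfsg.Agent.H88.SuzLocD5
import Cfsg.Agent.H88.SuzLocD3
import Cfsg.Agent.H72.Mathieu
import Cfsg.Prelude.Def_Transfer

set_option autoImplicit false
set_option maxRecDepth 100000

namespace H88

open H71 H81 Cfsg

noncomputable section

/-- the code of a word in packed permutations of 24 points. -/
def evP (cd : List ℕ) (w : List ℕ) : ℕ :=
  List.rec (motive := fun _ => ℕ) H72.idP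
    (fun l _ ih => H72.force ih (H72.mulP (nthD cd H72.idP l))) w

/-- the value of a letter. -/
def vP (cd : List ℕ) (l : ℕ) : H72.P24 := H72.toPerm (nthD cd H72.idP l)

theorem nthD_in {K : Subgroup H72.P24} {cd : List ℕ} (h : H72.AllIn K cd) (l : ℕ) :
    H72.valid (nthD cd H72.idP l) = true ∧ vP cd l ∈ K := by
  rw [vP, nthD_eq]
  rcases Nat.lt_or_ge l cd.length with h' | h'
  · rw [List.getD_eq_getElem _ _ h']; exact h _ (List.getElem_mem h')
  · rw [List.getD_eq_default _ _ h', H72.toPerm_idP]; exact ⟨H72.valid_idP, K.one_mem⟩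

theorem evP_spec {K : Subgroup H72.P24} {cd : List ℕ} (h : H72.AllIn K cd) (w : List ℕ) :
    H72.valid (evP cd w) = true ∧ H72.toPerm (evP cd w) = evw (vP cd) w := by
  induction w with
  | nil => exact ⟨H72.valid_idP, H72.toPerm_idP⟩
  | cons l w ih =>
    have e : evP cd (l :: w) = H72.mulP (nthD cd H72.idP l) (evP cd w) := H72.force_eq _ _
    rw [e, H72.toPerm_mulP (nthD_in h l).1 ih.1, ih.2]
    exact ⟨H72.valid_mulP (nthD_in h l).1 ih.1, (evw_cons (vP cd) l w).symm⟩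

theorem of_relC {K : Subgroup H72.P24} {cd : List ℕ} (h : H72.AllIn K cd)
    {R : List (List ℕ × List ℕ)}
    (e : allM (fun p => Nat.beq (evP cd p.1) (evP cd p.2)) R = true) :
    ∀ p ∈ R, evw (vP cd) p.1 = evw (vP cd) p.2 := fun p hp => by
  rw [← (evP_spec h _).2, ← (evP_spec h _).2, Nat.eq_of_beq_eq_true (of_allM e p hp)]

namespace SuzLoc

variable {G : Type*} [Group G] [Finite G]

omit [Finite G] in
theorem model (e : G ≃* Spor.Suz) : ∃ ρ : G →* Equiv.Perm ℕ, Function.Injective ρ ∧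
    ρ.range = H71.Suz.ρ.range ∧ Nat.card G = 448345497600 :=
  ⟨H71.Suz.ρ.comp e.toMonoidHom, H71.Suz.inj.comp e.injective, by
    rw [MonoidHom.range_comp, MonoidHom.range_eq_top.2 e.surjective, ← MonoidHom.range_eq_map],
    (Nat.card_congr e.toEquiv).trans H71.Suz.card⟩

/-! ### the prime 7 -/

theorem cardP7 : Nat.card (gen (vL LS) SP7) = 7 := card_gen_eq rCP7 oCP7 (by decide +kernel) lowP7

theorem cardN7 : Nat.card (gen (vL LS) SN7) = 504 := card_gen_eq rCN7 oCN7 (by decide +kernel) lowN7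

theorem comm7 : ∀ c ∈ H71.Suz.ρ.range, c * vL LS lx7 = vL LS lx7 * c → c ∈ gen (vL LS) SK7 :=
  fun c hc h => subQ7 c hc (mem_Sol (List.forall_mem_singleton.2 h) (List.forall_mem_singleton.2
    (setSt_of_comm hO7 (List.forall_mem_singleton.2 (List.forall_mem_singleton.2 h)))))

theorem cent7 : Subgroup.centralizer (gen (vL LS) SP7 : Set (Equiv.Perm ℕ)) ⊓ H71.Suz.ρ.range =
    gen (vL LS) SK7 :=
  le_antisymm (fun c hc => comm7 c hc.2 (hc.1 _ (mem_gen _ (by decide))).symm)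
    (le_inf (gen_le_cent rRk7 (by decide +kernel)) leK7)

theorem norm7 : Subgroup.normalizer (gen (vL LS) SP7 : Set (Equiv.Perm ℕ)) ⊓ H71.Suz.ρ.range =
    gen (vL LS) SN7 := by
  refine norm_eq_of (x := vL LS lx7) (mem_gen _ (by decide)) leN7
    (gen_le_norm rRn7 (by decide +kernel)) (fun c _ h => ?_)
    fun c hc _ h => gen_mono _ (by decide) (comm7 c hc h)
  obtain ⟨w, hw, e⟩ := elems_of_sch (s := CP7_0) (of_relP base hLS rCP7_0) oCP7 _ h
  rcases conj_table (S := SN7) (Z := [lx7]) rRc7 (by decide +kernel) w hw with h1 | ⟨l, hl, n, hn, h1⟩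
  · exfalso
    rw [← e, mul_inv_eq_one, mul_eq_left] at h1
    exact (mov_one hO7 0).1 (by decide +kernel) (by rw [show vL LS 21 = 1 from h1]; rfl)
  · exact ⟨n, hn, by rw [e, ← h1, List.mem_singleton.1 hl]⟩

/-- the images in `Z₇ × A₄`. -/
def v7 (l : ℕ) : Multiplicative (ZMod 7) × alternatingGroup (Fin 4) :=
  if l = lx7 then (Multiplicative.ofAdd 1, 1) else if l = ls7 then
    (1, ⟨Equiv.swap 0 1 * Equiv.swap 2 3, by simp⟩) else
    (1, ⟨Equiv.swap 0 1 * Equiv.swap 1 2, by simp⟩)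

theorem top7 : gen v7 SK7 = ⊤ := gen_top_of_nodup (W := W7) (by decide +kernel) (by decide +kernel)
  (by rw [Nat.card_prod, nat_card_alternatingGroup]; simp; decide +kernel)

theorem iso7 : Nonempty (gen (vL LS) SK7 ≃* Multiplicative (ZMod 7) × alternatingGroup (Fin 4)) := by
  obtain ⟨φ, -⟩ := model_equiv (val := vL LS) (val' := v7) (S := SK7) (M := 84)
    (bd_chain CK7 (pair_rel rCK7 (by decide +kernel)) oCK7) lowK7
    (by rw [top7, Subgroup.card_top, Nat.card_prod, nat_card_alternatingGroup]; simp; decide)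
  exact ⟨φ.trans ((MulEquiv.subgroupCongr top7).trans Subgroup.topEquiv)⟩

theorem seven (e : G ≃* Spor.Suz) (B : Sylow 7 G) :
    Nonempty (↥(Subgroup.centralizer ((B : Subgroup G) : Set G)) ≃*
      Multiplicative (ZMod 7) × alternatingGroup (Fin 4)) ∧
    Nat.card ↥(Subgroup.normalizer ((B : Subgroup G) : Set G)) = 504 := by
  obtain ⟨ρ0, i0, r0, c0⟩ := model e
  obtain ⟨ρ, i, r, h⟩ := sylow_model' i0 (k := 1) (by norm_num) B (r0 ▸ leP7) cardP7
    (by rw [c0]; norm_num)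
  rw [r0] at r
  obtain ⟨φ⟩ := iso7
  exact ⟨⟨(equivOfMap i (by rw [map_centralizer i, h, r, cent7])).trans φ⟩,
    (card_of_map i (by rw [map_normalizer i, h, r, norm7])).trans cardN7⟩

/-! ### the prime 5 -/

theorem cardP5 : Nat.card (gen (vL LS) SP5) = 25 := card_gen_eq rCP5 oCP5 (by decide +kernel) lowP5

theorem cardN5 : Nat.card (gen (vL LS) SN5) = 600 := card_gen_eq rCN5 oCN5 (by decide +kernel) lowN5

theorem cls5 : ∀ g ∈ gen (vL LS) SP5, g = 1 ∨ ∃ l ∈ [lx5, ly5], ∃ n ∈ gen (vL LS) SN5,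
    n * vL LS l * n⁻¹ = g := fun g hg => by
  obtain ⟨w, hw, rfl⟩ := elems_of_sch (s := CP5_0) (of_relP base hLS rCP5_0) oCP5 _ hg
  exact conj_table rRc5 (by decide +kernel) w hw

theorem nc5 {z c : Equiv.Perm ℕ} (hz : z ∈ Subgroup.zpowers (vL LS lx5)) :
    c * z * c⁻¹ ≠ vL LS ly5 := fun h =>
  absurd (mov_le (m := 11) (n := 1770) (n' := 1780) (mov_one hO5x) (mov_one hO5y)
    (by decide +kernel) (by decide +kernel) (fix_zpowers hz) h) (by norm_num)

theorem nx5 : vL LS lx5 ≠ 1 := fun h =>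
  (mov_one hO5x 0).1 (by decide +kernel) (by rw [show vL LS 43 = 1 from h]; rfl)

theorem ny5 : vL LS ly5 ≠ 1 := fun h =>
  (mov_one hO5y 0).1 (by decide +kernel) (by rw [show vL LS 44 = 1 from h]; rfl)

theorem norm5 : Subgroup.normalizer (gen (vL LS) SP5 : Set (Equiv.Perm ℕ)) ⊓ H71.Suz.ρ.range =
    gen (vL LS) SN5 := by
  refine norm_eq_of (x := vL LS lx5) (mem_gen _ (by decide)) leN5
    (gen_le_norm rRn5 (by decide +kernel)) (fun c _ h => ?_) fun c hc hn h =>
      subQ5 c hc (mem_Sol (List.forall_mem_singleton.2 h) (List.forall_mem_cons.2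
        ⟨setSt_of_norm hO5 hn, List.forall_mem_singleton.2 (setSt_of_comm hO5x
          (List.forall_mem_singleton.2 (List.forall_mem_singleton.2 h)))⟩))
  rcases cls5 _ h with h1 | ⟨l, hl, n, hn, h1⟩
  · rw [mul_inv_eq_one, mul_eq_left] at h1
    exact absurd h1 nx5
  · rcases List.mem_pair.1 hl with rfl | rfl
    · exact ⟨n, hn, h1⟩
    · exact absurd (by rw [mul_inv_rev, inv_inv, show n⁻¹ * c * vL LS lx5 * (c⁻¹ * n) =
        n⁻¹ * (c * vL LS lx5 * c⁻¹) * n by group, ← h1]; group)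
        (nc5 (c := n⁻¹ * c) (Subgroup.mem_zpowers _))

/-- the images in `Z₄ × S₃`. -/
def v5 (l : ℕ) : Multiplicative (ZMod 4) × Equiv.Perm (Fin 3) :=
  if l = lz5 then (Multiplicative.ofAdd 1, 1) else if l = lr5 then
    (1, Equiv.swap 0 1 * Equiv.swap 1 2) else if l = lf5 then (1, Equiv.swap 0 1) else 1

theorem card5 : Nat.card (Multiplicative (ZMod 4) × Equiv.Perm (Fin 3)) = 24 := by
  rw [Nat.card_prod, Nat.card_perm]; simp; rfl

theorem top5 : gen v5 SN5 = ⊤ := gen_top_of_nodup (W := W5) (by decide +kernel) (by decide +kernel)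
  (by rw [card5]; decide +kernel)

theorem five (e : G ≃* Spor.Suz) (P : Sylow 5 G) :
    (∃ A B : Subgroup G, Nat.card A = 5 ∧ Nat.card B = 5 ∧
      (∀ g : G, A.map (MulAut.conj g).toMonoidHom ≠ B) ∧ ∀ C : Subgroup G, Nat.card C = 5 →
        ∃ g : G, C.map (MulAut.conj g).toMonoidHom = A ∨ C.map (MulAut.conj g).toMonoidHom = B) ∧
    Nat.card (P : Subgroup G) = 25 ∧
    Nat.card ↥(Subgroup.normalizer ((P : Subgroup G) : Set G)) = 600 ∧
    Nonempty (↥(Subgroup.normalizer ((P : Subgroup G) : Set G)) ⧸ (P : Subgroup G).subgroupOf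
      (Subgroup.normalizer ((P : Subgroup G) : Set G)) ≃*
        Multiplicative (ZMod 4) × Equiv.Perm (Fin 3)) := by
  have := Fact.mk (by norm_num : Nat.Prime 5)
  obtain ⟨ρ0, i0, r0, c0⟩ := model e
  obtain ⟨ρ, i, r, h⟩ := sylow_model' i0 (k := 2) (by norm_num) P (r0 ▸ leP5) cardP5
    (by rw [c0]; norm_num)
  rw [r0] at r
  have hN := map_normalizer i (P : Subgroup G)
  rw [h, r, norm5] at hN
  refine ⟨?_, (card_of_map i h).trans cardP5, (card_of_map i hN).trans cardN5, ?_⟩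
  · obtain ⟨x, hx⟩ : vL LS lx5 ∈ ρ.range := r ▸ leP5 (mem_gen _ (by decide))
    obtain ⟨y, hy⟩ : vL LS ly5 ∈ ρ.range := r ▸ leP5 (mem_gen _ (by decide))
    have ox : orderOf x = 5 := orderOf_eq_prime
      (i (by rw [map_pow, hx, map_one]; exact pow_of_rel rRk5 (by decide)))
      fun h => nx5 (by rw [← hx, h, map_one])
    have oy : orderOf y = 5 := orderOf_eq_prime
      (i (by rw [map_pow, hy, map_one]; exact pow_of_rel rRk5 (by decide)))
      fun h => ny5 (by rw [← hy, h, map_one])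
    refine ⟨Subgroup.zpowers x, Subgroup.zpowers y, by rw [Nat.card_zpowers, ox],
      by rw [Nat.card_zpowers, oy], fun g hg => ?_, fun C hC => ?_⟩
    · obtain ⟨z, ⟨k, rfl⟩, e⟩ : y ∈ (Subgroup.zpowers x).map (MulAut.conj g).toMonoidHom :=
        hg ▸ Subgroup.mem_zpowers y
      refine nc5 (c := ρ g) (z := vL LS lx5 ^ k) ⟨k, rfl⟩ ?_
      rw [← hy, ← e, ← hx]
      simp
    · obtain ⟨Q, hQ⟩ := (IsPGroup.of_card (G := C) (p := 5) (n := 1) (by simpa using hC)).exists_le_sylow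
      obtain ⟨g, rfl⟩ := MulAction.exists_smul_eq G Q P
      have : Nontrivial C := Finite.one_lt_card_iff_nontrivial.1 (by rw [hC]; norm_num)
      obtain ⟨⟨c, hc⟩, h1⟩ := exists_ne (1 : C)
      have h1' : c ≠ 1 := fun e => h1 (Subtype.ext e)
      have h2 : ρ (g * c * g⁻¹) ∈ gen (vL LS) SP5 := h ▸ ⟨_, ⟨c, hQ hc, rfl⟩, rfl⟩
      rcases cls5 _ h2 with h3 | ⟨l, hl, n, hn, h3⟩
      · rw [map_eq_one_iff _ i, mul_inv_eq_one, mul_eq_left] at h3
        exact absurd h3 h1'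
      · obtain ⟨n, rfl⟩ : n ∈ ρ.range := r ▸ leN5 hn
        refine ⟨n⁻¹ * g, ?_⟩
        rw [map_conj_eq (by norm_num) hC hc h1', show n⁻¹ * g * c * (n⁻¹ * g)⁻¹ =
          n⁻¹ * (g * c * g⁻¹) * n by group]
        rcases List.mem_pair.1 hl with rfl | rfl
        · left
          rw [← hx, ← map_inv, ← map_mul, ← map_mul] at h3
          rw [← i h3]; simp [mul_assoc]
        · right
          rw [← hy, ← map_inv, ← map_mul, ← map_mul] at h3
          rw [← i h3]; simp [mul_assoc]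
  · obtain ⟨φ⟩ := quot_equiv i (v := v5) (M := 600) hN h (by decide) (by decide +kernel)
      (bd_chain CN5 (pair_rel (by decide +kernel) rCN5) oCN5) lowN5
      (by rw [cardP5, top5, Subgroup.card_top, card5])
    exact ⟨φ.trans ((MulEquiv.subgroupCongr top5).trans Subgroup.topEquiv)⟩

/-! ### the prime 3 -/

theorem cardA3 : Nat.card (gen (vL LS) SA3) = 243 := card_gen_eq rCA3 oCA3 (by decide +kernel) lowA3

theorem nN3 : gen (vL LS) SN3 ≤ Subgroup.normalizer (gen (vL LS) SA3 : Set (Equiv.Perm ℕ)) :=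
  gen_le_norm rRn3 (by decide +kernel)

theorem norm3 : Subgroup.normalizer (gen (vL LS) SA3 : Set (Equiv.Perm ℕ)) ⊓ H71.Suz.ρ.range =
    gen (vL LS) SN3 := by
  refine le_antisymm (fun c hc => ?_) (le_inf nN3 leN3)
  obtain ⟨k, hk, e⟩ := orb_of_lb lokN3 lbN3 (c 0) (by
    have := chQ3.2.2.1 c hc.2
    exact (by decide +kernel : vQ3_0.D = vN3_0.D) ▸ this)
  have e' : (k⁻¹ * c) 0 = 0 := by rw [Equiv.Perm.mul_apply, ← e]; exact k.symm_apply_apply _
  have h1 : vL LS 73 = 1 := by simpa using rRk3 ([73], []) (by decide +kernel)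
  have := subQ3 (k⁻¹ * c) (mul_mem (inv_mem (leN3 hk)) hc.2) e' (mem_Sol (by simp [h1])
    (List.forall_mem_singleton.2 (setSt_of_orb (b := 0) (orb_of_lb lokA3 lbA3)
      (gen_le_setSt hLS (by decide +kernel)) (by decide +kernel)
      (mul_mem (inv_mem (nN3 hk)) hc.1) e')))
  simpa using (gen (vL LS) SN3).mul_mem hk this

theorem in3 : H72.AllIn Spor.M11 cd3 := H72.M11_eq ▸ H72.allIn_stabM (by decide +kernel)

theorem top3 : gen (vP cd3) SN3 = Spor.M11 := by
  refine le_antisymm (gen_le fun l _ => (nthD_in in3 l).2) ?_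
  rw [H72.M11_eq_pg]
  refine H72.genBy_le fun s hs => ?_
  obtain ⟨l, hl, rfl⟩ := (by decide +kernel : ∀ s ∈ H72.pg11, ∃ l ∈ SN3, nthD cd3 H72.idP l = s) s hs
  exact mem_gen _ hl

theorem three (e : G ≃* Spor.Suz) (P : Sylow 3 G) : ∃ A : Subgroup G, A ≤ P ∧
    IsElementaryAbelian 3 A ∧ Nat.card A = 3 ^ 5 ∧ Subgroup.centralizer (A : Set G) = A ∧
    ∃ _ : (A.subgroupOf (Subgroup.normalizer (A : Set G))).Normal,
      Spor.IsoM11 (↥(Subgroup.normalizer (A : Set G)) ⧸
        A.subgroupOf (Subgroup.normalizer (A : Set G))) := by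
  obtain ⟨ρ0, i0, r0, c0⟩ := model e
  obtain ⟨ρ, i, r, A, hA, h⟩ := sylow_model_le i0 (k := 5) (by norm_num) P (r0 ▸ leA3) cardA3
  rw [r0] at r
  have hN := map_normalizer i A
  rw [h, r, norm3] at hN
  have hC := map_centralizer i A
  rw [h, r] at hC
  have a1 : gen (vL LS) SA3 ≤ Subgroup.centralizer (gen (vL LS) SA3 : Set (Equiv.Perm ℕ)) :=
    gen_le_cent rRk3 (by decide +kernel)
  have a2 : A ≤ Subgroup.centralizer (A : Set G) := by
    rw [← Subgroup.map_le_map_iff_of_injective i, hC, h]; exact le_inf a1 leA3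
  obtain ⟨φ⟩ := quot_equiv i (v := vP cd3) (M := 1924560) hN h (by decide)
    (fun l hl => by
      rw [vP, (by decide +kernel : ∀ l ∈ SA3, nthD cd3 H72.idP l = H72.idP) l hl, H72.toPerm_idP])
    (bd_chain CN3 (pair_rel (of_relC in3 (by decide +kernel)) rCN3) oCN3) lowN3
    (by rw [cardA3, top3, H72.card_M11])
  have ψ := φ.trans (MulEquiv.subgroupCongr top3)
  have ab : IsMulCommutative A := ⟨⟨fun a b => Subtype.ext (a2 b.2 a a.2)⟩⟩
  refine ⟨A, hA, ⟨ab, fun a ha => i ?_⟩, (card_of_map i h).trans cardA3, ?_, inferInstance, ⟨ψ⟩⟩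
  · have h3 : ρ a ∈ gen (vL LS) SA3 := h ▸ ⟨a, ha, rfl⟩
    rw [map_pow, map_one]
    generalize ρ a = x at h3
    induction h3 using Subgroup.closure_induction with
    | mem x hx =>
      obtain ⟨l, hl, rfl⟩ := hx
      exact pow_of_rel rRk3 ((by decide +kernel : ∀ l ∈ SA3, (List.replicate 3 l, []) ∈ Rk3) l hl)
    | one => simp
    | mul x y hx hy a b => rw [(show Commute x y from a1 hy x hx).mul_pow, a, b, one_mul]
    | inv x _ a => rw [inv_pow, a, inv_one]
  · have := H72.simple_M11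
    refine cent_eq_of_simple a2 ψ.isSimpleGroup fun hle => mv3 ?_
    have := Subgroup.map_mono (f := ρ) hle
    rw [hN, hC] at this
    simpa using ((this (mem_gen _ (by decide : jn1 ∈ SN3))).1 _
      (mem_gen _ (by decide : la3 ∈ SA3))).symm

end SuzLoc

end

end H88
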