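/- The subgroups `J₁` and `M₁₁` of the O'Nan group. -/
import Cfsg.Agent.H88.OutON
import Cfsg.Agent.H88.LocW
import Cfsg.Agent.H88.SuzLoc
import Cfsg.Agent.H74.J1

set_option autoImplicit false
set_option maxRecDepth 100000

namespace H88.ONSub

open H71 H81 H88.OutON Cfsg

def WI : List (List ℕ) := [[7,4,3,0,2,1,0,1,0,0,5,0,7,0,0,5,6,7,3,3],
  [3,2,6,3,1,6,0,7,6,3,0,0,0,7,6,7,3,3],
  [5,6,1,1,0,1,1,3,3,5,7,6,3,0,7,6,3,3,3,3,3],
  [0,4,6,0,0,1,1,3,5,3,6,5,0,6,0,7,3,3],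
  [2,2,6,1,7,2,5,7,5,3,3,3,0,0,5],
  [1,4,2,5,1,2,7,3,7,3,5,7,5,7,3,6],
  [2,5,3,1,0,1,3,3,0,6,0,5,3,0,6,7,3,3,3,3],
  [1,4,3,2,0,4,1,7,0,7,5,6,5,6,0,7,3,7,3,3,3,3],
  [3,3,4,3,3,2,1,0,5,6,3,3,5,6,0,0,7,6],
  [1,6,4,2,1,1,6,5,6,5,0,3,5,3,3,3],
  [7,4,0,7,1,4,7,0,6,0,3,3,5,3,0,7,3,3,3]]
def CM_0 : Sl := ⟨[5,6], [[],
  [5],
  [6],
  [5,5],
  [6,5],
  [5,6],
  [6,6],
  [6,5,5],
  [5,6,5],
  [5,6,6],
  [5,5,6,6]], [[(1, []), (3, []), (5, []), (6, [7,9,10,9,8,8,9,8]), (8, []), (7, [8,7,9,10,8,7,9,8,8]), (9, []), (4, [10,10,8,7,9,8,7]), (0, [7,9,10,8,8]), (10, []), (2, [8,7,9,10,8,7])],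
  [(2, []), (4, []), (6, []), (7, []), (0, [8,8,10,10,8,9,7,8]), (3, [8,10,10,8,8,9,8,8]), (8, [8,10,10,7,9,8,7]), (9, [10,8,8,9,7,8]), (5, [9,10,9,8,8,9,7]), (10, [8,8,10,10,9,9,7,8,8]), (1, [8,8,10,10,8,7,9,7])]]⟩
def CM_1 : Sl := ⟨[10,9,8,7], [[],
  [10],
  [10,10],
  [9,10],
  [8,10,10],
  [7,10,10],
  [7,9,10],
  [9,8,10,10],
  [8,8,10,10],
  [8,7,9,10]], [[(1, []), (2, []), (3, [9,9,8]), (4, []), (6, [9,8,7]), (8, [9,8,8,8]), (7, [8,8,9,7]), (9, [9,8,7]), (5, [8,8,8]), (0, [8,9,7])],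
  [(0, [9]), (3, []), (1, [7,9,9]), (5, [8,8,9,8]), (7, []), (2, [7,9,9,8,8]), (8, [8,9]), (6, [9,8,8,8]), (4, [7,9,7,8]), (9, [8,9,8])],
  [(0, [8]), (1, [9]), (4, []), (2, [8,7,9,8,8,8]), (8, []), (6, [8,8,9,7]), (9, []), (5, [8,7,9,8,8]), (3, [8,8,9,7]), (7, [8])],
  [(0, [7]), (1, [7,9,9,8]), (5, []), (6, []), (7, [7,9,9,8,8]), (8, []), (4, [8,7,9,8,8,8]), (3, [8,8,8]), (9, [8,8,9,7]), (2, [8,7,9,8,8,8])]]⟩
def CM_2 : Sl := ⟨[9,8,7], [[],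
  [9],
  [9,9],
  [8,9],
  [7,9],
  [7,9,9],
  [8,8,9],
  [8,7,9],
  [9,8,8,9]], [[(1, []), (2, []), (3, [8]), (0, [8,8,8]), (5, [8,8]), (6, [7]), (8, []), (7, [8,8,8]), (4, [7])],
  [(0, [8]), (3, []), (4, [7,8,8]), (6, []), (7, []), (1, [7,8,8]), (5, [7]), (8, [8,7]), (2, [8,8,8])],
  [(0, [7]), (4, []), (5, []), (2, [7]), (6, []), (7, [7,8,8]), (8, [8,7]), (3, []), (1, [7,8])]]⟩
def CM_3 : Sl := ⟨[8,7], [[],
  [8],
  [7],
  [8,8],
  [7,8],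
  [8,7],
  [8,8,8],
  [7,8,8]], [[(1, []), (3, []), (5, []), (6, []), (2, []), (7, []), (0, []), (4, [])],
  [(2, []), (4, []), (3, []), (7, []), (6, []), (1, []), (5, []), (0, [])]]⟩
def CM : List Sl := [CM_0, CM_1, CM_2, CM_3]
theorem oCM : schOK CM = true := by decide +kernel
def cdM : List ℕ := [984818244535754528103549039458486304, 984818244535754528103549039458486304, 984818244535754528103549039458486304, 984818244535754528103549039458486304, 984818244535754528103549039458486304, 648446588024040955117907192863558912, 321442733776969647883196717202672928, 608405391266436187982588441666881568, 719923664328491199848526586197411872, 313626468097149398198142802389895200, 234595916867257899668651066224348192]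

noncomputable def W : List (List Lt) := wds [ln8, lnx, lnq, ln10, lnu, ln7, ln11, ln9] lnx WI

theorem vok : VOK 131072 H71.ON.ρ.range W := VOK.wds (AOK.cons on8 (AOK.cons onx (AOK.cons onq
  (AOK.cons on10 (AOK.cons onu (AOK.cons on7 (AOK.cons on11 (AOK.cons on9 AOK.nil)))))))) onx _

theorem mem (l : ℕ) : vW W l ∈ H71.ON.ρ.range := (vok.nth l).mem

noncomputable def RJ : List (List ℕ) := [H71.pw [0] 2, H71.pw [1] 2, H71.pw [2] 2, H71.pw [3] 2, H71.pw [4] 2, H71.pw [0, 1] 3,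
  H71.pw [0, 2] 2, H71.pw [0, 3] 2, H71.pw [0, 4] 2, H71.pw [1, 2] 5, H71.pw [1, 3] 2, H71.pw [1, 4] 2, H71.pw [2, 3] 3,
  H71.pw [2, 4] 2, H71.pw [3, 4] 5, H71.pw [0, 1, 2] 5, 0 :: H71.pw [2, 3, 4] 5]

theorem rJ : ∀ r ∈ RJ, evw (vW W) r = 1 := of_relW base vok (by decide +kernel)

theorem rels : H74.J1.Rels (vW W 0) (vW W 1) (vW W 2) (vW W 3) (vW W 4) := by
  have := rJ
  simp only [RJ, List.forall_mem_cons, evw_pw, evw_cons, evw_nil, mul_one, ← mul_assoc] at this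
  obtain ⟨h1, h2, h3, h4, h5, h6, h7, h8, h9, h10, h11, h12, h13, h14, h15, h16, h17, -⟩ := this
  exact ⟨pow_two (vW W 0) ▸ h1, pow_two (vW W 1) ▸ h2, pow_two (vW W 2) ▸ h3,
    pow_two (vW W 3) ▸ h4, pow_two (vW W 4) ▸ h5, h6, h7, h8, h9, h10, h11, h12, h13, h14, h15,
    h16, h17⟩

theorem subJ {H : Type*} [Group H] (e : Spor.ON ≃* H) :
    ∃ K : Subgroup H, Nonempty (H74.J1.J ≃* K) := by
  refine sub_of_emb H71.ON.inj (rels.injective (by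
    simpa using vW_ne vok (r := [0]) (p := 95372) (by norm_num) (by decide +kernel))) (fun m => ?_) e
  have : gen H74.J1.val H74.J1L2.S ≤ H71.ON.ρ.range.comap rels.hom := gen_le fun l hl => by
    rw [Subgroup.mem_comap, rels.hom_val]
    simp only [H74.J1L2.S, List.mem_cons, List.not_mem_nil, or_false] at hl
    rcases hl with rfl | rfl | rfl | rfl | rfl <;> exact mem _
  exact this (H74.J1.top ▸ Subgroup.mem_top m)

theorem inM : H72.AllIn Spor.M11 cdM := H72.M11_eq ▸ H72.allIn_stabM (by decide +kernel)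

theorem topM : gen (vP cdM) [5, 6] = Spor.M11 := by
  refine le_antisymm (gen_le fun l _ => (nthD_in inM l).2) ?_
  rw [H72.M11_eq_pg]
  refine H72.genBy_le fun s hs => ?_
  obtain ⟨l, hl, rfl⟩ :=
    (by decide +kernel : ∀ s ∈ H72.pg11, ∃ l ∈ [5, 6], nthD cdM H72.idP l = s) s hs
  exact mem_gen _ hl

theorem rM : ∀ e ∈ CM.flatMap schR, evw (vW W) e.1 = evw (vW W) e.2 :=
  of_relW2 base vok (by decide +kernel)

theorem subM {H : Type*} [Group H] (e : Spor.ON ≃* H) :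
    ∃ K : Subgroup H, Nonempty (Spor.M11 ≃* K) := by
  have : IsSimpleGroup (gen (vP cdM) [5, 6]) := topM ▸ H72.simple_M11
  obtain ⟨φ⟩ := emb_of_simple (v := vW W) (π := vP cdM) (S := [5, 6]) (n := 7920)
    (bd_chain CM (pair_rel rM (of_relC inM (by decide +kernel))) oCM)
    (by rw [topM, H72.card_M11]) (l := 5) (by decide) (by
      simpa using vW_ne vok (r := [5]) (p := 95372) (by norm_num) (by decide +kernel))
  obtain ⟨K, ⟨ψ⟩⟩ := sub_of_emb H71.ON.inj (gen (vW W) [5, 6]).subtype_injective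
    (fun m => gen_le (fun l _ => mem l) m.2) e
  exact ⟨K, ⟨((MulEquiv.subgroupCongr topM).symm.trans φ).trans ψ⟩⟩

end H88.ONSub
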